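import Cfsg.Agent.Chev.InvF4
import Cfsg.Agent.Chev.RootCent
import Cfsg.Agent.Chev.AutOut
import Cfsg.Agent.S1054

/-!
# Facts about the group `F4(2)`
-/

set_option autoImplicit false

namespace Cfsg.Lib.SB4

open Cfsg.Lie Cfsg.Lib.Chev Cfsg.Lib.Chev.Core Subgroup

/-- The field with two elements. -/
abbrev F2 : Type := ZMod 2

namespace M

/-- The group `F4(2)`. -/
abbrev Γ2 : Type := chevF4.group F2

/-- A word in the root elements. -/
noncomputable def Wd (b : List ℕ) : Γ2 := ⟨w1 F2 chevF4 b, certF4.w1_mem_group rootF4 b⟩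

theorem Wd_nil : Wd [] = 1 := rfl

theorem Wd_append (a b : List ℕ) : Wd (a ++ b) = Wd a * Wd b := Subtype.ext (w1_append a b)

theorem Wd_one (r : ℕ) : Wd [r] = xG chevF4 F2 r 1 := Subtype.ext (mul_one _)

theorem weq {a b : List ℕ} (h : wordEq2 certF4.T a b = true) : Wd a = Wd b :=
  Subtype.ext (certF4.w1_eq rootF4 h)

theorem wmul {a b c : List ℕ} (h : wordEq2 certF4.T (a ++ b) c = true) : Wd a * Wd b = Wd c :=
  (Wd_append a b).symm.trans (weq h)

theorem wcomm {a b : List ℕ} (h : wordEq2 certF4.T (a ++ b) (b ++ a) = true) :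
    Wd a * Wd b = Wd b * Wd a := (wmul h).trans (Wd_append b a)

theorem wconj {g a b : List ℕ} (h : wordEq2 certF4.T (g ++ a) (b ++ g) = true) :
    Wd g * Wd a * (Wd g)⁻¹ = Wd b := by
  rw [wmul h, Wd_append, mul_inv_cancel_right]

theorem coe_Wd (a : List ℕ) : (Wd a).1 = w1 F2 chevF4 a := rfl

theorem coe_conj {a b : List ℕ} {g : Γ2} (e : g * Wd a * g⁻¹ = Wd b) :
    g.1 * w1 F2 chevF4 a * g.1⁻¹ = w1 F2 chevF4 b := by
  have := congrArg Subtype.val e
  rwa [Subgroup.coe_mul, Subgroup.coe_mul, Subgroup.coe_inv, coe_Wd, coe_Wd] at this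

theorem rank_ne {a b : List ℕ} {k l : ℕ} (h1 : rankChk certF4.T a k = true)
    (h2 : rankChk certF4.T b l = true) (h : k ≠ l) (g : Γ2) : g * Wd a * g⁻¹ ≠ Wd b := fun e =>
  h (certF4.eq_of_conj_w1 rootF4 h1 h2 (coe_conj e))

theorem long_ne_short (g : Γ2) : g * Wd [47] * g⁻¹ ≠ Wd [44] := fun e =>
  certF4.conj_ne_of_len rootF4 (p := 2) (T := [47]) (T' := [44]) (S := []) (S' := []) (by decide +kernel)
    (by decide +kernel) (by decide +kernel) (by decide +kernel) g.1 g.2 (coe_conj e)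

theorem simple2 : IsSimpleGroup Γ2 ∧ ¬ IsMulCommutative Γ2 := Agent.S1054.result chevF4 (by simp)

theorem center2 : center Γ2 = ⊥ := certF4.center_eq_bot rootF4

theorem classes {x : Γ2} (x2 : x * x = 1) (x1 : x ≠ 1) : ∃ g : Γ2, g * x * g⁻¹ = Wd [47] ∨
    g * x * g⁻¹ = Wd [44] ∨ g * x * g⁻¹ = Wd [47, 44] ∨ g * x * g⁻¹ = Wd [39, 45] := by
  obtain ⟨z, hz, b, hb, e⟩ := exists_conj_invRepsF4 x.1 x.2 (by
    rw [orderOf_coe]; exact orderOf_eq_prime (by rw [sq, x2]) x1)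
  refine ⟨⟨z, hz⟩, ?_⟩
  simp only [invRepsF4, List.map_cons, List.map_nil, List.mem_cons, List.not_mem_nil,
    or_false] at hb
  rcases hb with rfl | rfl | rfl | rfl
  · exact Or.inl (Subtype.ext e)
  · exact Or.inr (Or.inl (Subtype.ext e))
  · exact Or.inr (Or.inr (Or.inl (Subtype.ext e)))
  · exact Or.inr (Or.inr (Or.inr (Subtype.ext e)))

theorem f2_cases (t : F2) : t = 0 ∨ t = 1 := by revert t; decide

theorem xG_cases {r : ℕ} (hr : r < 48) (t : F2) :
    xG chevF4 F2 r t = 1 ∨ xG chevF4 F2 r t = Wd [r] := by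
  obtain rfl | rfl := f2_cases t
  · exact Or.inl (Subtype.ext ((certF4.stRelN F2 rootF4).toStRel.zero hr))
  · exact Or.inr (Wd_one r).symm

theorem top_of {N : Subgroup Γ2} (h : ∀ r ∈ [33, 27, 25, 24, 14, 20, 22, 23], Wd [r] ∈ N) :
    N = ⊤ := by
  have k : ∀ r ∈ [33, 27, 25, 24, 14, 20, 22, 23], ∀ t, xG chevF4 F2 r t ∈ N := fun r hr t => by
    obtain e | e := xG_cases (r := r) (by revert r; decide) t
    · exact e ▸ one_mem _
    · exact e ▸ h r hr
  exact certF4.eq_top_of_simple rootF4 (fun i => k _ (by revert i; decide +kernel))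
    fun i => k _ (by revert i; decide +kernel)

/-- The Sylow 2-subgroup generated by the positive root elements. -/
noncomputable def U2 : Subgroup Γ2 := (certF4.Y F2 rootF4).U.subgroupOf _

theorem isPGroup_U2 : IsPGroup 2 U2 := (certF4.isPGroup_U rootF4 2).comap_subtype

theorem mem_U2 {r : ℕ} (hr : r ∈ posL chevF4) : Wd [r] ∈ U2 := by
  rw [Wd_one]
  exact (certF4.Y F2 rootF4).X_le_U (rootF4.mem_posL.1 hr) (x_mem_xSub _ r 1)

theorem inU {g : GL chevF4.Idx F2} (hg : g ∈ (certF4.Y F2 rootF4).G0)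
    (h : ∀ r ∈ [47, 46, 44, 40], g * xGL chevF4 F2 r 1 * g⁻¹ = xGL chevF4 F2 r 1) :
    g ∈ (certF4.Y F2 rootF4).U := by
  obtain ⟨w, hw⟩ := RGD.mem_G0_iff.1 hg
  have k : ∀ (r : ℕ) (S : List ℕ), r ∈ [47, 46, 44, 40] → orbChk chevF4 2 [r] S = true →
      abChk chevF4 2 ([r] ++ S) = true → w⁻¹ • r ∈ [r] ++ S := fun r S hr h1 h2 =>
    (certF4.stRelN F2 rootF4).toStRelW.inv_smul_mem_of_conj rootF4 (certF4.faithful F2 rootF4)
      (fun _ => certF4.xGL_injective rootF4) h1 h2 h1 hw (by simpa [xOne] using h r hr) (by simp)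
  have a1 : w⁻¹ • 47 = 47 := by
    simpa using k 47 [] (by simp) (by decide +kernel) (by decide +kernel)
  have a2 : w⁻¹ • 44 = 44 := by
    simpa using k 44 [] (by simp) (by decide +kernel) (by decide +kernel)
  have a3 : w⁻¹ • 46 = 46 := by
    have := k 46 [47] (by simp) (by decide +kernel) (by decide +kernel)
    simp only [List.cons_append, List.nil_append, List.mem_cons, List.not_mem_nil, or_false] at this
    exact this.resolve_right fun e => absurd (MulAction.injective _ (e.trans a1.symm)) (by decide)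
  have a4 : w⁻¹ • 40 = 40 := by
    have := k 40 [44] (by simp) (by decide +kernel) (by decide +kernel)
    simp only [List.cons_append, List.nil_append, List.mem_cons, List.not_mem_nil, or_false] at this
    exact this.resolve_right fun e => absurd (MulAction.injective _ (e.trans a2.symm)) (by decide)
  have hw1 := rootF4.mem_WJ_of_fix (T := [(47, 2), (46, 1), (44, 2), (40, 1)]) (J := ∅)
    (by decide +kernel) (by decide +kernel) (fun i hi => absurd hi (by revert i; decide +kernel))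
    (w := w) (by simp [a1, a2, a3, a4])
  rw [WeylData.WJ_empty, mem_bot] at hw1
  subst hw1
  obtain ⟨u, hu, t, ht, rfl⟩ := (certF4.Y F2 rootF4).mem_B_iff.1 (RGD.mem_cell_one.1 hw)
  rw [StRelW.rgd_H, ← (certF4.stRelN F2 rootF4).range_hHom rootF4] at ht
  obtain ⟨c, rfl⟩ := ht
  rwa [Subsingleton.elim c 1, map_one, mul_one]

theorem prod_sub {f : ℕ → GL chevF4.Idx F2} (hf : ∀ r, f r ∈ xSub (xGL chevF4 F2) r) :
    ∀ K : List ℕ, (∀ r ∈ K, r < 48) → ∃ b ∈ K.sublists', (K.map f).prod = w1 F2 chevF4 b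
  | [], _ => ⟨[], by simp, rfl⟩
  | r :: K, h => by
    obtain ⟨b, hb, e⟩ := prod_sub hf K fun s hs => h s (by simp [hs])
    obtain ⟨t, ht⟩ := ((certF4.stRelN F2 rootF4).toStRel.mem_xSub_iff (h r (by simp))).1 (hf r)
    rw [List.map_cons, List.prod_cons, e, ht, List.sublists'_cons]
    obtain rfl | rfl := f2_cases t
    · exact ⟨b, List.mem_append_left _ hb, by
        rw [(certF4.stRelN F2 rootF4).toStRel.zero (h r (by simp)), one_mul]⟩
    · exact ⟨r :: b, List.mem_append_right _ (List.mem_map_of_mem hb), rfl⟩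

/-- The centraliser of a set of root elements. -/
theorem cu {e : Γ2} (Q K : List ℕ) (ws : List (List (Fin chevF4.rank)))
    (h : ∀ r ∈ Q, e * Wd [r] = Wd [r] * e) (h0 : ∀ r ∈ Q, r < 48)
    (h1 : ∀ c ∈ [] :: ws, ∀ t ∈ [47, 46, 44, 40], ∃ r ∈ Q, actR certF4.wt c r = t)
    (h2 : ∀ r ∈ posL chevF4, r ∉ K → ∃ c ∈ ws, actR certF4.wt c r ∉ posL chevF4)
    (h3 : (posL chevF4).filter (fun r => r ∈ K) = K) : ∃ b ∈ K.sublists', e = Wd b := by
  have hY := certF4.faithful F2 rootF4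
  have he : e.1 ∈ (certF4.Y F2 rootF4).G0 := (certF4.group_eq_Y rootF4).le e.2
  have k : ∀ c ∈ [] :: ws, wprod (certF4.Y F2 rootF4).n c * e.1 *
      (wprod (certF4.Y F2 rootF4).n c)⁻¹ ∈ (certF4.Y F2 rootF4).U := fun c hc => by
    have hm := (certF4.Y F2 rootF4).N_le_G0 ((certF4.Y F2 rootF4).lifts_wprod c).mem_N
    refine inU (mul_mem (mul_mem hm he) (inv_mem hm)) fun t ht => ?_
    obtain ⟨r, hr, rfl⟩ := h1 c hc t ht
    have e1 : e.1 * xGL chevF4 F2 r 1 = xGL chevF4 F2 r 1 * e.1 := by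
      simpa [Wd_one] using congrArg Subtype.val (h r hr)
    rw [certF4.actR_eq rootF4 c (h0 r hr),
      ← (certF4.stRelN F2 rootF4).toStRelW.wprod_conj_two rootF4 c (h0 r hr)]
    simp only [mul_assoc, inv_mul_cancel_left, mul_inv_rev, inv_inv]
    rw [← mul_assoc e.1, e1]
    simp only [mul_assoc, mul_inv_cancel_left]
  have hU : e.1 ∈ (certF4.Y F2 rootF4).U := by simpa using k [] (by simp)
  have nd : (posL chevF4).Nodup := by decide +kernel
  obtain ⟨f, hf, ef⟩ := RGD.exists_prod_U nd (fun _ => rootF4.mem_posL) hU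
  have z : ∀ r ∈ posL chevF4, r ∉ K → f r = 1 := fun r hr hK => by
    obtain ⟨c, hc, hn⟩ := h2 r hr hK
    have h4 := hY.mem_Upos ((certF4.Y F2 rootF4).lifts_wprod c) hU
      ((certF4.Y F2 rootF4).U_le_B (k c (by simp [hc])))
    refine hY.eq_one_of_notMem (RGD.eComm_cone _) (S := {r | rootF4.weyl.Pos r ∧
      rootF4.weyl.Pos (wprod rootF4.weyl.s c • r)}) ((certF4.Y F2 rootF4).eComm_cone.eClosed (fun _ h => h.1)
        fun r hr s hs k hk => ⟨hk.pos hr.1 hs.1, (hk.smul hr.1.1 hs.1.1 _).pos hr.2 hs.2⟩) nd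
      (fun _ => rootF4.mem_posL) (fun r _ => hf r) (ef ▸ h4) hr fun h5 => hn ?_
    rw [certF4.actR_eq rootF4 c (rootF4.weyl_mem.1 h5.1.1)]
    exact rootF4.mem_posL.2 h5.2
  obtain ⟨b, hb, eb⟩ := prod_sub hf K fun r hr =>
    rootF4.weyl_mem.1 (rootF4.mem_posL.1 (List.mem_filter.1 (h3.symm ▸ hr)).1).1
  refine ⟨b, hb, Subtype.ext (ef.trans (Eq.trans ?_ eb))⟩
  conv_rhs => rw [← h3, RGD.list_prod_filter]
  exact congrArg _ (List.map_congr_left fun r hr => by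
    by_cases hK : r ∈ K <;> simp [hK, z r hr])

/-- The automorphism group of a group. -/
abbrev AutG (X : Type*) [Group X] := MulAut X

theorem std_eq {θ η : certF4.Std F2 rootF4}
    (h : certF4.piHom F2 rootF4 θ = certF4.piHom F2 rootF4 η) : θ = η := by
  obtain ⟨c, σ, e⟩ := (certF4.ker_piHom rootF4 (tripleCond_of_mem (by simp)) (θ := θ⁻¹ * η)).1
    (by rw [MonoidHom.mem_ker, map_mul, map_inv, h, inv_mul_cancel])
  have : σ = 1 := RingEquiv.ext fun t => by rcases f2_cases t with rfl | rfl <;> simp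
  rw [Subsingleton.elim c 1, this, map_one, map_one, mul_one] at e
  exact inv_mul_eq_one.1 (Subtype.ext e)

theorem aut_cases (θ : AutG Γ2) : (∃ x : Γ2, θ = MulAut.conj x) ∨ ∃ (x : Γ2)
    (h : MulAut.conj x * θ ∈ certF4.Std F2 rootF4), certF4.piHom F2 rootF4 ⟨_, h⟩ = isoF4.π := by
  obtain ⟨x, hx⟩ := certF4.exists_conj_mem_Std rootF4 θ
  obtain e | e := sym_F4 (certF4.isDiagramSymmetry_piHom rootF4 ⟨_, hx⟩)
  · refine Or.inl ⟨x⁻¹, ?_⟩
    rw [map_inv]
    have := std_eq (θ := ⟨_, hx⟩) (η := 1) (by rw [e, map_one])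
    have h1 : MulAut.conj x * θ = 1 := by simpa using this
    exact eq_inv_of_mul_eq_one_right h1
  · exact Or.inr ⟨x, hx, e⟩

theorem aut_two (θ η : AutG Γ2) : (∃ x : Γ2, θ = MulAut.conj x) ∨ (∃ x : Γ2, η = MulAut.conj x) ∨
    ∃ x : Γ2, θ⁻¹ * η = MulAut.conj x := by
  obtain h | ⟨x, hx, e⟩ := aut_cases θ
  · exact Or.inl h
  obtain h | ⟨y, hy, f⟩ := aut_cases η
  · exact Or.inr (Or.inl h)
  have : MulAut.conj x * θ = MulAut.conj y * η :=
    Subtype.mk.inj (std_eq (θ := ⟨_, hx⟩) (η := ⟨_, hy⟩) (e.trans f.symm))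
  refine Or.inr (Or.inr ⟨θ⁻¹ (y⁻¹ * x), ?_⟩)
  rw [eq_inv_mul_of_mul_eq this.symm]
  exact MulEquiv.ext fun z => by simp [mul_assoc]

theorem aut_out (θ : AutG Γ2) : (∃ x : Γ2, θ = MulAut.conj x) ∨
    ∀ g : Γ2, θ (g * Wd [47] * g⁻¹) ≠ g * Wd [47] * g⁻¹ := by
  refine (aut_cases θ).imp_right fun ⟨x, hx, e⟩ g hg => ?_
  have h0 := certF4.car_piHom rootF4 ⟨_, hx⟩ ⟨3, by decide⟩ (Wd [24])
  rw [e, show chevF4.simple (isoF4.π ⟨3, by decide⟩ : Fin chevF4.rank) = 33 by decide +kernel,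
    show chevF4.simple (⟨3, by decide⟩ : Fin chevF4.rank) = 24 by decide +kernel,
    certF4.mem_xSub_iff rootF4 (by decide), certF4.mem_xSub_iff rootF4 (by decide)] at h0
  obtain ⟨t, ht⟩ := h0.2 ⟨1, Wd_one 24⟩
  change (MulAut.conj x * θ) _ = _ at ht
  have a1 : Wd [46, 1, 46] * Wd [24] * (Wd [46, 1, 46])⁻¹ = Wd [47] := wconj (by decide +kernel)
  have a2 : Wd [40, 7, 40] * Wd [33] * (Wd [40, 7, 40])⁻¹ = Wd [44] := wconj (by decide +kernel)
  obtain h2 | h2 := xG_cases (r := 33) (by decide) t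
  · rw [h2, MulEquiv.map_eq_one_iff] at ht
    refine rank_ne (a := []) (b := [24]) (k := 0) (l := 16) (by decide +kernel) (by decide +kernel)
      (by decide) 1 (by rw [ht, Wd_nil]; simp)
  rw [h2, MulAut.mul_apply, MulAut.conj_apply] at ht
  rw [map_mul, map_mul, map_inv, ← a1, map_mul, map_mul, map_inv, a1] at hg
  refine long_ne_short (Wd [40, 7, 40] * x * (θ g * θ (Wd [46, 1, 46]))⁻¹ * g) ?_
  rw [← a2, ← ht]
  generalize θ (Wd [24]) = u at hg
  have : Wd [47] = g⁻¹ * (θ g * (θ (Wd [46, 1, 46]) * u * (θ (Wd [46, 1, 46]))⁻¹) * (θ g)⁻¹) * g := by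
    rw [hg]; group
  rw [this]
  group

end M

/-- The group `F4(2)`. -/
def Γ2 : Type := M.Γ2

noncomputable instance instGroupΓ2 : Group Γ2 := Subgroup.toGroup _

instance instFiniteΓ2 : Finite Γ2 := inferInstanceAs (Finite M.Γ2)

/-- The identification with the matrix group. -/
noncomputable def eqv : chevF4.group F2 ≃* Γ2 := MulEquiv.refl M.Γ2

/-- A word in the root elements. -/
noncomputable def Wd (b : List ℕ) : Γ2 := M.Wd b

/-- The Sylow 2-subgroup generated by the positive root elements. -/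
noncomputable def U2 : Subgroup Γ2 := M.U2

theorem Wd_nil : Wd [] = 1 := M.Wd_nil

theorem Wd_append (a b : List ℕ) : Wd (a ++ b) = Wd a * Wd b := M.Wd_append a b

theorem weq {a b : List ℕ} (h : wordEq2 certF4.T a b = true) : Wd a = Wd b := M.weq h

theorem wmul {a b c : List ℕ} (h : wordEq2 certF4.T (a ++ b) c = true) : Wd a * Wd b = Wd c :=
  M.wmul h

theorem wcomm {a b : List ℕ} (h : wordEq2 certF4.T (a ++ b) (b ++ a) = true) :
    Wd a * Wd b = Wd b * Wd a := M.wcomm h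

theorem wconj {g a b : List ℕ} (h : wordEq2 certF4.T (g ++ a) (b ++ g) = true) :
    Wd g * Wd a * (Wd g)⁻¹ = Wd b := M.wconj h

theorem rank_ne {a b : List ℕ} {k l : ℕ} (h1 : rankChk certF4.T a k = true)
    (h2 : rankChk certF4.T b l = true) (h : k ≠ l) (g : Γ2) : g * Wd a * g⁻¹ ≠ Wd b :=
  M.rank_ne h1 h2 h g

theorem simple2 : IsSimpleGroup Γ2 := M.simple2.1

theorem center2 : center Γ2 = ⊥ := M.center2

theorem classes {x : Γ2} (x2 : x * x = 1) (x1 : x ≠ 1) : ∃ g : Γ2, g * x * g⁻¹ = Wd [47] ∨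
    g * x * g⁻¹ = Wd [44] ∨ g * x * g⁻¹ = Wd [47, 44] ∨ g * x * g⁻¹ = Wd [39, 45] :=
  M.classes x2 x1

theorem top_of {N : Subgroup Γ2} (h : ∀ r ∈ [33, 27, 25, 24, 14, 20, 22, 23], Wd [r] ∈ N) :
    N = ⊤ := M.top_of h

theorem isPGroup_U2 : IsPGroup 2 U2 := M.isPGroup_U2

theorem mem_U2 {r : ℕ} (hr : r ∈ posL chevF4) : Wd [r] ∈ U2 := M.mem_U2 hr

theorem cu {e : Γ2} (Q K : List ℕ) (ws : List (List (Fin 4)))
    (h : ∀ r ∈ Q, e * Wd [r] = Wd [r] * e) (h0 : ∀ r ∈ Q, r < 48)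
    (h1 : ∀ c ∈ [] :: ws, ∀ t ∈ [47, 46, 44, 40], ∃ r ∈ Q, actR certF4.wt c r = t)
    (h2 : ∀ r ∈ posL chevF4, r ∈ K ∨ ∃ c ∈ ws, actR certF4.wt c r ∉ posL chevF4)
    (h3 : (posL chevF4).filter (fun r => r ∈ K) = K) : ∃ b ∈ K.sublists', e = Wd b :=
  M.cu Q K ws h h0 h1 (fun r hr => (h2 r hr).resolve_left) h3

theorem aut_two (θ η : MulAut Γ2) : (∃ x, θ = MulAut.conj x) ∨ (∃ x, η = MulAut.conj x) ∨
    ∃ x, θ⁻¹ * η = MulAut.conj x := M.aut_two θ η

theorem aut_out (θ : MulAut Γ2) : (∃ x, θ = MulAut.conj x) ∨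
    ∀ g : Γ2, θ (g * Wd [47] * g⁻¹) ≠ g * Wd [47] * g⁻¹ := M.aut_out θ

end Cfsg.Lib.SB4
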